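import Mathlib
import Cfsg.Prelude.Def_OddOrderLocal
import Cfsg.Agent.Lib.Helper35.BG.Basic
import Cfsg.Agent.Lib.Helper35.BG.Hall
import Cfsg.Agent.Lib.Helper23.Compl
import Cfsg.Agent.Lib.Helper75.BGUtil
import Cfsg.Agent.Lib.Helper1.MixBase

/-!
Generic fusion lemma for Hall subgroups (used for Bender–Glauberman Lemma 15.3(b) = S1438):
if `S ⊴ M` has a `q`-subgroup `Q ⊴ M` with a nilpotent complement in `S`, then for every Hall
subgroup `H` of `S`, `N_M(H)` controls `M`-fusion in `H`.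
-/

set_option autoImplicit false

namespace Cfsg.Agent.Lib.Helper57.BG

open Cfsg Cfsg.Agent.Lib.Helper35.BG

/-- A subgroup `L ≤ S` whose order is coprime to the index in `S` of the subgroup `H`, normalized
by `S`, lies in `H`. -/
theorem le_of_coprime_relIndex_of_normal {G : Type*} [Group G] [Finite G] {H L S : Subgroup G}
    (hHS : H ≤ S) (hLS : L ≤ S) (hSN : S ≤ Subgroup.normalizer (H : Set G))
    (hcop : (Nat.card L).Coprime (H.relIndex S)) : L ≤ H := by
  have hLN : L ≤ Subgroup.normalizer (H : Set G) := hLS.trans hSN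
  have h1 : Nat.card (L ⊔ H : Subgroup G) ∣ Nat.card L * Nat.card H :=
    Cfsg.Agent.Lib.Helper1.Mix.card_sup_dvd L H hLN
  have h2 : Nat.card H * H.relIndex (L ⊔ H) = Nat.card (L ⊔ H : Subgroup G) :=
    card_mul_relIndex' le_sup_right
  have h3 : H.relIndex (L ⊔ H) ∣ Nat.card L := by
    have h : Nat.card H * H.relIndex (L ⊔ H) ∣ Nat.card H * Nat.card L := by
      rw [h2, mul_comm (Nat.card H)]; exact h1
    exact Nat.dvd_of_mul_dvd_mul_left Nat.card_pos h
  have h4 : H.relIndex (L ⊔ H) ∣ H.relIndex S :=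
    Dvd.intro _ (Subgroup.relIndex_mul_relIndex H (L ⊔ H) S le_sup_right (sup_le hLS hHS))
  have h5 : H.relIndex (L ⊔ H) = 1 :=
    (Nat.Coprime.coprime_dvd_left h3 hcop).eq_one_of_dvd h4
  rw [h5, mul_one] at h2
  have h6 : H = L ⊔ H := Subgroup.eq_of_le_of_card_ge le_sup_right (le_of_eq h2.symm)
  exact le_sup_left.trans h6.ge

/-- Dedekind: if `S = Q D` with `Q ∩ D = 1` and `Q ≤ L ≤ S`, then `L = Q (L ∩ D)`. -/
theorem isComplIn_inf_of_le {G : Type*} [Group G] {Q D S L : Subgroup G}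
    (hQD : IsComplIn Q D S) (hQL : Q ≤ L) (hLS : L ≤ S) : IsComplIn Q (L ⊓ D) L := by
  refine ⟨hQL, inf_le_left, ?_, ?_⟩
  · rw [eq_bot_iff, ← hQD.2.2.1]
    exact le_inf inf_le_left (inf_le_right.trans inf_le_right)
  · intro l hl
    obtain ⟨a, ha, b, hb, hab⟩ := hQD.2.2.2 l (hLS hl)
    refine ⟨a, ha, b, ⟨?_, hb⟩, hab⟩
    have : b = a⁻¹ * l := by rw [hab]; group
    rw [this]
    exact L.mul_mem (L.inv_mem (hQL ha)) hl

/-- **Fusion in Hall subgroups.** Let `S ≤ M` be normalized by the solvable group `M`, `Q ≤ S` a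
`q`-group normalized by `M` with a nilpotent complement `D` in `S`, and `H` a Hall subgroup of
`S`. If `x` and `m x m⁻¹` lie in `H` with `m ∈ M`, then `m x m⁻¹ = n x n⁻¹` for some
`n ∈ N_M(H)`. -/
theorem hall_fusion_of_normal_pgroup {G : Type*} [Group G] [Finite G] {M S Q H D : Subgroup G}
    {q : ℕ} [Fact q.Prime] (hMsolv : Group.IsSolvable M) (hSM : S ≤ M)
    (hMS : M ≤ Subgroup.normalizer (S : Set G)) (hMQ : M ≤ Subgroup.normalizer (Q : Set G))
    (hQq : IsPGroup q Q) (hQD : IsComplIn Q D S) (hDnil : Group.IsNilpotent D)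
    (hHS : H ≤ S) (hHall : (Nat.card H).Coprime (H.relIndex S))
    {x m : G} (hx : x ∈ H) (hm : m ∈ M) (hxm : m * x * m⁻¹ ∈ H) :
    ∃ n ∈ M ⊓ Subgroup.normalizer (H : Set G), n * x * n⁻¹ = m * x * m⁻¹ := by
  classical
  have hq : q.Prime := Fact.out
  have hQS : Q ≤ S := hQD.1
  have hDS : D ≤ S := hQD.2.1
  have hHNQ : H ≤ Subgroup.normalizer (Q : Set G) := (hHS.trans hSM).trans hMQ
  obtain ⟨L, hLdef⟩ : ∃ L : Subgroup G, L = Q ⊔ H := ⟨_, rfl⟩
  have hQL : Q ≤ L := by rw [hLdef]; exact le_sup_left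
  have hHL : H ≤ L := by rw [hLdef]; exact le_sup_right
  have hLS : L ≤ S := by rw [hLdef]; exact sup_le hQS hHS
  have hcardLdvd : Nat.card L ∣ Nat.card H * Nat.card Q := by
    rw [hLdef, sup_comm]
    exact Cfsg.Agent.Lib.Helper1.Mix.card_sup_dvd H Q hHNQ
  have hrelLS : H.relIndex L * L.relIndex S = H.relIndex S :=
    Subgroup.relIndex_mul_relIndex H L S hHL hLS
  have hcardS : Nat.card S = Nat.card Q * Nat.card D :=
    Cfsg.Agent.Lib.Helper23.card_of_isComplIn hQD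
  -- cardinalities of `L₁ ⊓ D` for `Q ≤ L₁ ≤ S`
  have hcardinf : ∀ L₁ : Subgroup G, Q ≤ L₁ → L₁ ≤ S →
      Nat.card L₁ = Nat.card Q * Nat.card (L₁ ⊓ D : Subgroup G) := fun L₁ h1 h2 =>
    Cfsg.Agent.Lib.Helper23.card_of_isComplIn (isComplIn_inf_of_le hQD h1 h2)
  have hdecomp : ∀ L₁ : Subgroup G, Q ≤ L₁ → L₁ ≤ S → L₁ = Q ⊔ (L₁ ⊓ D) := by
    intro L₁ h1 h2
    apply le_antisymm
    · intro l hl
      obtain ⟨a, ha, b, hb, hab⟩ := (isComplIn_inf_of_le hQD h1 h2).2.2.2 l hl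
      rw [hab]
      exact Subgroup.mul_mem _ (Subgroup.mem_sup_left ha) (Subgroup.mem_sup_right hb)
    · exact sup_le h1 inf_le_left
  -- Claim 1: `M` normalizes `L`
  have hclaim1 : ∀ g ∈ M, L.map (MulAut.conj g).toMonoidHom = L := by
    intro g hg
    obtain ⟨L', hL'def⟩ : ∃ L' : Subgroup G, L' = L.map (MulAut.conj g).toMonoidHom := ⟨_, rfl⟩
    have hQL' : Q ≤ L' := by
      rw [hL'def, ← Cfsg.Agent.Lib.Helper46.map_conj_eq_of_mem_normalizer (hMQ hg)]
      exact Subgroup.map_mono hQL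
    have hL'S : L' ≤ S := by
      rw [hL'def, ← Cfsg.Agent.Lib.Helper46.map_conj_eq_of_mem_normalizer (hMS hg)]
      exact Subgroup.map_mono hLS
    have hcardL' : Nat.card L' = Nat.card L := by rw [hL'def, card_map_conj]
    have hc1 := hcardinf L hQL hLS
    have hc2 := hcardinf L' hQL' hL'S
    have hcardeq : Nat.card (L' ⊓ D : Subgroup G) = Nat.card (L ⊓ D : Subgroup G) := by
      have : Nat.card Q * Nat.card (L' ⊓ D : Subgroup G) =
          Nat.card Q * Nat.card (L ⊓ D : Subgroup G) := by rw [← hc1, ← hc2, hcardL']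
      exact Nat.eq_of_mul_eq_mul_left Nat.card_pos this
    -- `L ⊓ D` is a Hall subgroup of `D`
    have hdvd1 : Nat.card (L ⊓ D : Subgroup G) ∣ Nat.card H := by
      have : Nat.card Q * Nat.card (L ⊓ D : Subgroup G) ∣ Nat.card Q * Nat.card H := by
        rw [← hc1, mul_comm (Nat.card Q)]; exact hcardLdvd
      exact Nat.dvd_of_mul_dvd_mul_left Nat.card_pos this
    have hrel : (L ⊓ D).relIndex D = L.relIndex S := by
      have e1 : Nat.card (L ⊓ D : Subgroup G) * (L ⊓ D).relIndex D = Nat.card D :=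
        card_mul_relIndex' inf_le_right
      have e2 : Nat.card L * L.relIndex S = Nat.card S := card_mul_relIndex' hLS
      have e3 : Nat.card Q * Nat.card (L ⊓ D : Subgroup G) * (L ⊓ D).relIndex D =
          Nat.card Q * Nat.card (L ⊓ D : Subgroup G) * L.relIndex S := by
        rw [mul_assoc, e1, ← hcardS, ← hc1, e2]
      have hpos : 0 < Nat.card Q * Nat.card (L ⊓ D : Subgroup G) :=
        Nat.mul_pos Nat.card_pos Nat.card_pos
      exact Nat.eq_of_mul_eq_mul_left hpos e3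
    have hcopD : (Nat.card (L ⊓ D : Subgroup G)).Coprime ((L ⊓ D).relIndex D) := by
      rw [hrel]
      exact Nat.Coprime.coprime_dvd_left hdvd1
        (Nat.Coprime.coprime_dvd_right (Dvd.intro_left _ hrelLS) hHall)
    have huniq : ((L' ⊓ D).subgroupOf D) = ((L ⊓ D).subgroupOf D) := by
      apply Cfsg.Agent.Lib.Helper75.BG.hall_unique_of_nilpotent
      · rw [Nat.card_congr (Subgroup.subgroupOfEquivOfLe (inf_le_right : L ⊓ D ≤ D)).toEquiv]
        exact hcopD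
      · rw [Nat.card_congr (Subgroup.subgroupOfEquivOfLe (inf_le_right : L' ⊓ D ≤ D)).toEquiv,
          Nat.card_congr (Subgroup.subgroupOfEquivOfLe (inf_le_right : L ⊓ D ≤ D)).toEquiv]
        exact hcardeq
    have heq : L' ⊓ D = L ⊓ D := by
      have h1 := congrArg (fun K : Subgroup D => K.map D.subtype) huniq
      simp only [Subgroup.map_subgroupOf_eq_of_le (inf_le_right : L' ⊓ D ≤ D),
        Subgroup.map_subgroupOf_eq_of_le (inf_le_right : L ⊓ D ≤ D)] at h1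
      exact h1
    rw [← hL'def, hdecomp L' hQL' hL'S, heq, ← hdecomp L hQL hLS]
  -- Claim 2: `m H m⁻¹ = u H u⁻¹` for some `u ∈ Q`
  have hclaim2 : ∃ u ∈ Q, H.map (MulAut.conj m).toMonoidHom = H.map (MulAut.conj u).toMonoidHom := by
    have hH'L : H.map (MulAut.conj m).toMonoidHom ≤ L := by
      rw [← hclaim1 m hm]
      exact Subgroup.map_mono hHL
    have hLsolv : Group.IsSolvable L :=
      Group.isSolvable_of_isSolvable_injective (Subgroup.inclusion_injective (hLS.trans hSM))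
    have hrelL : H.relIndex L ∣ H.relIndex S := Dvd.intro _ hrelLS
    have hH : IsPiHallOf {r | r.Prime ∧ ¬ r ∣ H.relIndex S} H L := by
      refine ⟨hHL, fun p hp hdvd => ⟨hp, fun h => ?_⟩, fun p hp hpπ hdvd => hpπ.2 (hdvd.trans hrelL)⟩
      exact (Nat.Prime.coprime_iff_not_dvd hp).mp (Nat.Coprime.coprime_dvd_left hdvd hHall) h
    have hH' : IsPiHallOf {r | r.Prime ∧ ¬ r ∣ H.relIndex S}
        (H.map (MulAut.conj m).toMonoidHom) L := by
      have hc : Nat.card (H.map (MulAut.conj m).toMonoidHom) = Nat.card H := card_map_conj H m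
      have hr : (H.map (MulAut.conj m).toMonoidHom).relIndex L = H.relIndex L := by
        have e1 := card_mul_relIndex' hH'L
        have e2 := card_mul_relIndex' hHL
        rw [hc] at e1
        exact Nat.eq_of_mul_eq_mul_left Nat.card_pos (e1.trans e2.symm)
      refine ⟨hH'L, fun p hp hdvd => ?_, fun p hp hpπ hdvd => ?_⟩
      · rw [hc] at hdvd
        exact hH.2.1 p hp hdvd
      · rw [hr] at hdvd
        exact hH.2.2 p hp hpπ hdvd
    obtain ⟨v, hv, hvH⟩ := exists_conj_of_isPiHallOf hLsolv hH hH'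
    have hvmem : v ∈ ((Q ⊔ H : Subgroup G) : Set G) := by rw [← hLdef]; exact hv
    rw [Subgroup.coe_mul_of_right_le_normalizer_left Q H hHNQ] at hvmem
    obtain ⟨u, hu, h, hh, huh⟩ := Set.mem_mul.mp hvmem
    refine ⟨u, hu, ?_⟩
    rw [hvH, ← huh, ← map_conj_mul, Cfsg.Agent.Lib.Helper46.map_conj_eq_of_mem hh]
  obtain ⟨u, hu, huH⟩ := hclaim2
  by_cases hbot : Q ⊓ H = ⊥
  · -- `n := u⁻¹ m`
    have huM : u ∈ M := hSM (hQS hu)
    have hnM : u⁻¹ * m ∈ M := M.mul_mem (M.inv_mem huM) hm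
    have hnN : u⁻¹ * m ∈ Subgroup.normalizer (H : Set G) := by
      apply mem_normalizer_of_map_conj_eq
      rw [← map_conj_mul, huH, map_conj_mul, inv_mul_cancel, map_conj_one]
    refine ⟨u⁻¹ * m, ⟨hnM, hnN⟩, ?_⟩
    have hyH : u⁻¹ * m * x * (u⁻¹ * m)⁻¹ ∈ H :=
      (Subgroup.mem_normalizer_iff.mp hnN x).mp hx
    have hyM : m * x * m⁻¹ ∈ M := hSM (hHS hxm)
    have hcQ : (m * x * m⁻¹)⁻¹ * (u⁻¹ * m * x * (u⁻¹ * m)⁻¹) ∈ Q := by
      have h1 : (m * x * m⁻¹)⁻¹ ∈ Subgroup.normalizer (Q : Set G) := hMQ (M.inv_mem hyM)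
      have h2 : (m * x * m⁻¹)⁻¹ * u⁻¹ * ((m * x * m⁻¹)⁻¹)⁻¹ ∈ Q :=
        (Subgroup.mem_normalizer_iff.mp h1 u⁻¹).mp (Q.inv_mem hu)
      have h3 : (m * x * m⁻¹)⁻¹ * (u⁻¹ * m * x * (u⁻¹ * m)⁻¹) =
          (m * x * m⁻¹)⁻¹ * u⁻¹ * ((m * x * m⁻¹)⁻¹)⁻¹ * u := by group
      rw [h3]
      exact Q.mul_mem h2 hu
    have hcH : (m * x * m⁻¹)⁻¹ * (u⁻¹ * m * x * (u⁻¹ * m)⁻¹) ∈ H :=
      H.mul_mem (H.inv_mem hxm) hyH
    have hc1 : (m * x * m⁻¹)⁻¹ * (u⁻¹ * m * x * (u⁻¹ * m)⁻¹) ∈ Q ⊓ H := ⟨hcQ, hcH⟩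
    rw [hbot, Subgroup.mem_bot] at hc1
    have : u⁻¹ * m * x * (u⁻¹ * m)⁻¹ =
        (m * x * m⁻¹) * ((m * x * m⁻¹)⁻¹ * (u⁻¹ * m * x * (u⁻¹ * m)⁻¹)) := by group
    rw [this, hc1, mul_one]
  · -- `Q ≤ H`, so `H = L` is normalized by `M`
    have hqH : q ∣ Nat.card H := by
      have h1 : IsPGroup q (Q ⊓ H : Subgroup G) := hQq.to_le inf_le_left
      obtain ⟨k, hk⟩ := IsPGroup.iff_card.mp h1
      have hk0 : k ≠ 0 := by
        intro h0
        rw [h0, pow_zero] at hk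
        exact hbot (Subgroup.card_eq_one.mp hk)
      have h2 : q ∣ Nat.card (Q ⊓ H : Subgroup G) := by rw [hk]; exact dvd_pow_self q hk0
      exact h2.trans (Subgroup.card_dvd_of_le inf_le_right)
    have hrelQ : H.relIndex L ∣ Nat.card Q := by
      have e := card_mul_relIndex' hHL
      have : Nat.card H * H.relIndex L ∣ Nat.card H * Nat.card Q := by rw [e]; exact hcardLdvd
      exact Nat.dvd_of_mul_dvd_mul_left Nat.card_pos this
    have hrel1 : H.relIndex L = 1 := by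
      obtain ⟨j, hj⟩ := IsPGroup.iff_card.mp hQq
      rw [hj] at hrelQ
      obtain ⟨i, -, hi⟩ := (Nat.dvd_prime_pow hq).mp hrelQ
      rcases Nat.eq_zero_or_pos i with h0 | hpos
      · rw [hi, h0, pow_zero]
      · exfalso
        have h1 : q ∣ H.relIndex L := by rw [hi]; exact dvd_pow_self q hpos.ne'
        have h2 : q ∣ H.relIndex S := h1.trans (Dvd.intro _ hrelLS)
        exact (Nat.Prime.coprime_iff_not_dvd hq).mp (Nat.Coprime.coprime_dvd_left hqH hHall) h2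
    have hHeqL : H = L := by
      have e := card_mul_relIndex' hHL
      rw [hrel1, mul_one] at e
      exact Subgroup.eq_of_le_of_card_ge hHL (le_of_eq e.symm)
    have hmN : m ∈ Subgroup.normalizer (H : Set G) := by
      apply mem_normalizer_of_map_conj_eq
      rw [hHeqL]
      exact hclaim1 m hm
    exact ⟨m, ⟨hm, hmN⟩, rfl⟩

end Cfsg.Agent.Lib.Helper57.BG
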