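import Mathlib

/-!
PKG-E for Bender–Glauberman 11.7 (helper15's project): an element of prime order `p` acting
nontrivially on a group of prime order `q` forces `p < q`.
-/

set_option autoImplicit false

namespace Cfsg.Agent.Lib.Helper57.BG

/-- If `a` commutes with `a ^ d * w * (a ^ d)⁻¹`-type relations: the conjugates of `w` by the
powers `a ^ i`, `i < p`, are pairwise distinct when `a` has prime order `p` and does not commute
with `w`. -/
theorem conj_pow_injOn_of_not_commute {G : Type*} [Group G] {p : ℕ} (hp : p.Prime) (a w : G)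
    (hao : orderOf a = p) (hnc : a * w ≠ w * a) :
    ∀ i j : ℕ, i < p → j < p → a ^ i * w * (a ^ i)⁻¹ = a ^ j * w * (a ^ j)⁻¹ → i = j := by
  have key : ∀ i j : ℕ, i ≤ j → j < p → a ^ i * w * (a ^ i)⁻¹ = a ^ j * w * (a ^ j)⁻¹ → i = j := by
    intro i j hij hj h
    by_contra hne
    have hd0 : 0 < j - i := by omega
    have hdp : j - i < p := by omega
    have hcomm : Commute (a ^ (j - i)) w := by
      have hj' : a ^ j = a ^ i * a ^ (j - i) := by rw [← pow_add]; congr 1; omega
      rw [hj'] at h
      have h2 : w = a ^ (j - i) * w * (a ^ (j - i))⁻¹ := by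
        have h3 : (a ^ i)⁻¹ * (a ^ i * w * (a ^ i)⁻¹) * a ^ i =
            (a ^ i)⁻¹ * (a ^ i * a ^ (j - i) * w * (a ^ i * a ^ (j - i))⁻¹) * a ^ i := by rw [h]
        simpa [mul_assoc] using h3
      show a ^ (j - i) * w = w * a ^ (j - i)
      calc a ^ (j - i) * w = a ^ (j - i) * w * (a ^ (j - i))⁻¹ * a ^ (j - i) := by group
        _ = w * a ^ (j - i) := by rw [← h2]
    have hnd : ¬ p ∣ j - i := by
      intro hdvd
      exact absurd (Nat.le_of_dvd hd0 hdvd) (by omega)
    have hcop : Nat.Coprime (j - i) (orderOf a) := by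
      rw [hao]
      exact Nat.Coprime.symm ((Nat.Prime.coprime_iff_not_dvd hp).mpr hnd)
    obtain ⟨m, hm⟩ := exists_pow_eq_self_of_coprime hcop
    have h4 : Commute ((a ^ (j - i)) ^ m) w := hcomm.pow_left m
    rw [hm] at h4
    exact hnc h4
  intro i j hi hj h
  rcases le_total i j with hij | hij
  · exact key i j hij hj h
  · exact (key j i hij hi h.symm).symm

/-- **PKG-E.** If `a` of prime order `p` normalizes a group `W` of prime order `q` and does not
centralize it, then `p < q`. -/
theorem lt_of_not_commute_prime {G : Type*} [Group G] {p q : ℕ} (hp : p.Prime) (hq : q.Prime)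
    (W : Subgroup G) (hW : Nat.card W = q) (a : G) (hao : orderOf a = p)
    (haW : a ∈ Subgroup.normalizer (W : Set G)) (w : G) (hw : w ∈ W) (hnc : a * w ≠ w * a) :
    p < q := by
  classical
  have : Finite W := Nat.finite_of_card_ne_zero (by rw [hW]; exact hq.ne_zero)
  have hfin : (W : Set G).Finite := Set.toFinite _
  have hw1 : w ≠ 1 := by
    rintro rfl
    exact hnc (by simp)
  have hinj := conj_pow_injOn_of_not_commute hp a w hao hnc
  -- the image of `Finset.range p` under `i ↦ a^i w a^-i` lies in `W \ {1}`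
  have hsub : (fun i : ℕ => a ^ i * w * (a ^ i)⁻¹) '' (Finset.range p : Set ℕ) ⊆
      (W : Set G) \ {1} := by
    rintro _ ⟨i, -, rfl⟩
    refine ⟨?_, ?_⟩
    · have hai : a ^ i ∈ Subgroup.normalizer (W : Set G) := pow_mem haW i
      exact (Subgroup.mem_normalizer_iff.mp hai w).mp hw
    · intro h1
      have h1' : a ^ i * w * (a ^ i)⁻¹ = 1 := h1
      apply hw1
      have : w = (a ^ i)⁻¹ * (a ^ i * w * (a ^ i)⁻¹) * a ^ i := by group
      rw [this, h1']; group
  have hcard1 : ((fun i : ℕ => a ^ i * w * (a ^ i)⁻¹) '' (Finset.range p : Set ℕ)).ncard = p := by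
    rw [Set.InjOn.ncard_image, Set.ncard_coe_finset, Finset.card_range]
    intro i hi j hj h
    exact hinj i j (Finset.mem_range.mp hi) (Finset.mem_range.mp hj) h
  have hcard2 : ((W : Set G) \ {1}).ncard = q - 1 := by
    rw [Set.ncard_sdiff_singleton_of_mem (W.one_mem), ← hW]
    congr 1
  have hle : p ≤ q - 1 := by
    rw [← hcard1, ← hcard2]
    exact Set.ncard_le_ncard hsub (hfin.subset Set.sdiff_subset)
  have := hq.two_le
  omega

end Cfsg.Agent.Lib.Helper57.BG
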