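import Mathlib
import Cfsg.Prelude.Def_OddOrderLocal
import Cfsg.Statements.S1350
import Cfsg.Statements.S1405
import Cfsg.Statements.S1417
import Cfsg.Statements.S1418
import Cfsg.Agent.Lib.Helper67.BG.Basics
import Cfsg.Agent.Lib.Helper67.BG.S1358Core
import Cfsg.Agent.Lib.Helper75.BGUtil
import Cfsg.Agent.Lib.Helper20.BG.S1408Core
import Cfsg.Agent.Lib.Helper35.BG.Basic
import Cfsg.Agent.Lib.Helper78.BG.S1405Aux
import Cfsg.Agent.Lib.Helper78.BG.S1418Core
import Cfsg.Agent.Lib.Helper80.Winter1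

/-!
Bender–Glauberman chain, statement S1361: for a standard factorisation `M = K U M_σ` and a
nontrivial subgroup `X ≤ U` centralizing a non-identity element of `M_σ`, `M` is the unique maximal
subgroup containing `C_G(X)`.  Derived from S1350 (`M_σ` is a Hall subgroup), S1405 (`α(M) ⊆ σ(M)`),
S1417 (BG Theorem 12.5) and S1418 (BG Corollary 12.6), taken as hypotheses.
-/

set_option autoImplicit false

namespace Cfsg.Agent.Lib.Helper57.BG

open Cfsg
open scoped Pointwise

/-- A `q`-element normalizing a group of order `p ^ 2`, with `p < q` and `p` odd, centralizes it. -/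
theorem commute_of_normalizes_sq {G : Type*} [Group G] {p q : ℕ} [hp : Fact p.Prime]
    [hq : Fact q.Prime] (hpq : p < q) (hp2 : p ≠ 2) (A : Subgroup G) (hA : Nat.card A = p ^ 2)
    (g : G) (hg : g ∈ Subgroup.normalizer (A : Set G)) (hgq : ∃ k : ℕ, g ^ q ^ k = 1) :
    ∀ a ∈ A, g * a = a * g := by
  classical
  have hpp : p.Prime := hp.out
  have hqp : q.Prime := hq.out
  have : Finite A := Nat.finite_of_card_ne_zero (by rw [hA]; exact pow_ne_zero 2 hpp.ne_zero)
  have hZN : Subgroup.zpowers g ≤ Subgroup.normalizer (A : Set G) := by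
    rw [Subgroup.zpowers_le]; exact hg
  have hZq : IsPGroup q (Subgroup.zpowers g) := by
    obtain ⟨k, hk⟩ := hgq
    rintro ⟨z, hz⟩
    obtain ⟨n, rfl⟩ := Subgroup.mem_zpowers_iff.mp hz
    refine ⟨k, Subtype.ext ?_⟩
    show (g ^ n) ^ q ^ k = 1
    rw [← zpow_natCast, ← zpow_mul, mul_comm, zpow_mul, zpow_natCast, hk, one_zpow]
  let act : MulAction (Subgroup.zpowers g) A :=
    { smul := fun z a => ⟨(z : G) * a * (z : G)⁻¹,
        (Subgroup.mem_normalizer_iff.mp (hZN z.2) a).mp a.2⟩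
      one_smul := fun a => Subtype.ext (by
        show ((1 : Subgroup.zpowers g) : G) * a * ((1 : Subgroup.zpowers g) : G)⁻¹ = a
        simp)
      mul_smul := fun z w a => Subtype.ext (by
        show ((z * w : Subgroup.zpowers g) : G) * a * ((z * w : Subgroup.zpowers g) : G)⁻¹ =
          (z : G) * ((w : G) * a * (w : G)⁻¹) * (z : G)⁻¹
        simp [mul_assoc]) }
  have hsmul : ∀ (z : Subgroup.zpowers g) (a : A), ((z • a : A) : G) = (z : G) * a * (z : G)⁻¹ :=
    fun _ _ => rfl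
  have hmod := hZq.card_modEq_card_fixedPoints A
  have hfix : Nat.card (MulAction.fixedPoints (Subgroup.zpowers g) A) =
      Nat.card ((Subgroup.centralizer ({g} : Set G)).subgroupOf A) := by
    apply Nat.card_congr
    apply Equiv.setCongr
    ext a
    rw [MulAction.mem_fixedPoints, SetLike.mem_coe, Subgroup.mem_subgroupOf,
      Subgroup.mem_centralizer_singleton_iff]
    constructor
    · intro h
      have h1 := congrArg (fun t : A => (t : G)) (h ⟨g, Subgroup.mem_zpowers g⟩)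
      simp only [hsmul] at h1
      calc (a : G) * g = (g * a * g⁻¹) * g := by rw [h1]
        _ = g * a := by group
    · intro h z
      apply Subtype.ext
      rw [hsmul]
      obtain ⟨n, hn⟩ := Subgroup.mem_zpowers_iff.mp z.2
      have hc : Commute (a : G) g := h
      have hc2 : Commute (a : G) (z : G) := by rw [← hn]; exact hc.zpow_right n
      calc (z : G) * a * (z : G)⁻¹ = (a : G) * (z : G) * (z : G)⁻¹ := by rw [hc2.eq]
        _ = a := by group
  rw [hfix] at hmod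
  have hdvd : Nat.card ((Subgroup.centralizer ({g} : Set G)).subgroupOf A) ∣ p ^ 2 := by
    rw [← hA]; exact Subgroup.card_subgroup_dvd_card _
  obtain ⟨j, hj, hcard⟩ := (Nat.dvd_prime_pow hpp).mp hdvd
  rw [hA, hcard] at hmod
  have hq2 : q ≠ 2 := by
    have := hpp.two_le
    omega
  have hp3 : 3 ≤ p := by
    have := hpp.two_le
    omega
  have hj2 : j = 2 := by
    by_contra hne
    have hle : p ^ j ≤ p ^ 2 := Nat.pow_le_pow_right hpp.pos hj
    have hd : q ∣ p ^ 2 - p ^ j := (Nat.modEq_iff_dvd' hle).mp hmod.symm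
    have hj01 : j = 0 ∨ j = 1 := by omega
    rcases hj01 with rfl | rfl
    · have h1 : p ^ 2 - p ^ 0 = (p - 1) * (p + 1) := by
        obtain ⟨m, rfl⟩ : ∃ m, p = m + 1 := ⟨p - 1, by omega⟩
        simp only [pow_zero, Nat.add_sub_cancel]
        have : (m + 1) ^ 2 = m * (m + 1 + 1) + 1 := by ring
        rw [this]
        simp
      rw [h1] at hd
      rcases (Nat.Prime.dvd_mul hqp).mp hd with h | h
      · have := Nat.le_of_dvd (by omega) h
        omega
      · have hle2 := Nat.le_of_dvd (by omega) h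
        have hqeq : q = p + 1 := by omega
        have hpodd : Odd p := hpp.odd_of_ne_two hp2
        have hqodd : Odd q := hqp.odd_of_ne_two hq2
        rw [hqeq] at hqodd
        obtain ⟨a, ha⟩ := hpodd
        obtain ⟨b, hb⟩ := hqodd
        omega
    · have h1 : p ^ 2 - p ^ 1 = p * (p - 1) := by
        obtain ⟨m, rfl⟩ : ∃ m, p = m + 1 := ⟨p - 1, by omega⟩
        simp only [pow_one, Nat.add_sub_cancel]
        have : (m + 1) ^ 2 = (m + 1) * m + (m + 1) := by ring
        rw [this]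
        simp
      rw [h1] at hd
      rcases (Nat.Prime.dvd_mul hqp).mp hd with h | h
      · have := Nat.le_of_dvd hpp.pos h
        omega
      · have := Nat.le_of_dvd (by omega) h
        omega
  rw [hj2, ← hA] at hcard
  have htop : (Subgroup.centralizer ({g} : Set G)).subgroupOf A = ⊤ :=
    Subgroup.eq_top_of_card_eq _ hcard
  intro a ha
  have hmem : (⟨a, ha⟩ : A) ∈ (Subgroup.centralizer ({g} : Set G)).subgroupOf A := by
    rw [htop]; exact Subgroup.mem_top _
  rw [Subgroup.mem_subgroupOf, Subgroup.mem_centralizer_singleton_iff] at hmem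
  exact hmem.symm

/-- Conjugates of elementary abelian subgroups are elementary abelian. -/
theorem ea_map_conj {G : Type*} [Group G] {p : ℕ} {A : Subgroup G}
    (hA : Cfsg.IsElementaryAbelian p A) (g : G) :
    Cfsg.IsElementaryAbelian p (A.map (MulAut.conj g).toMonoidHom) := by
  have hcomm : ∀ a ∈ A, ∀ b ∈ A, a * b = b * a := by
    intro a ha b hb
    have := (isMulCommutative_iff.mp hA.1) ⟨a, ha⟩ ⟨b, hb⟩
    exact congrArg Subtype.val this
  refine ⟨?_, ?_⟩
  · rw [isMulCommutative_iff]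
    rintro ⟨_, ⟨a, ha, rfl⟩⟩ ⟨_, ⟨b, hb, rfl⟩⟩
    apply Subtype.ext
    show (MulAut.conj g).toMonoidHom a * (MulAut.conj g).toMonoidHom b =
      (MulAut.conj g).toMonoidHom b * (MulAut.conj g).toMonoidHom a
    rw [← map_mul, ← map_mul, hcomm a ha b hb]
  · rintro _ ⟨a, ha, rfl⟩
    rw [← map_pow, hA.2 a ha, map_one]

/-- If `H` is a Hall `π`-subgroup of `M` contained in `B`, and `U` is a complement of `B` in `M`,
then no prime of `π` divides `|U|`. -/
theorem not_dvd_card_of_hall_compl {G : Type*} [Group G] [Finite G] {π : Set ℕ}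
    {H B U M : Subgroup G} (hH : Cfsg.IsPiHallOf π H M) (hHB : H ≤ B)
    (hc : Cfsg.IsComplIn U B M) {p : ℕ} (hp : p.Prime) (hpπ : p ∈ π) : ¬ p ∣ Nat.card U := by
  intro hdvd
  have hcardM : Nat.card M = Nat.card U * Nat.card B :=
    Cfsg.Agent.Lib.Helper23.card_of_isComplIn hc
  have hrel : Nat.card H * H.relIndex M = Nat.card M :=
    Cfsg.Agent.Lib.Helper23.card_mul_relIndex hH.1
  obtain ⟨c, hc'⟩ : Nat.card H ∣ Nat.card B := Subgroup.card_dvd_of_le hHB
  have hrel2 : Nat.card U * c = H.relIndex M := by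
    have hpos : 0 < Nat.card H := Nat.card_pos
    apply Nat.eq_of_mul_eq_mul_left hpos
    rw [hrel, hcardM, hc']
    ring
  apply hH.2.2 p hp hpπ
  rw [← hrel2]
  exact hdvd.mul_right c

/-- The subgroup `K ⊔ U` of a standard factorisation is a complement of `M_σ` in `M`. -/
theorem isComplIn_sup_of_sigmaDecomposition {G : Type*} [Group G] [Finite G]
    {M K U : Subgroup G} (hKU : Cfsg.IsSigmaDecomposition M K U) :
    Cfsg.IsComplIn (K ⊔ U) (Cfsg.sigmaCore M) M := by
  have hUM : U ≤ M := hKU.compl.1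
  have hKM : K ≤ M := hKU.hall.1
  have hMsM : sigmaCore M ≤ M := Cfsg.Agent.Lib.Helper67.BG.sigmaCore_le M
  have hKMs : K ⊓ sigmaCore M = ⊥ := by
    rw [eq_bot_iff]
    rintro g ⟨hgK, hgMs⟩
    rw [Subgroup.mem_bot]
    by_contra hg1
    have ho : orderOf g ≠ 1 := fun h => hg1 (orderOf_eq_one_iff.mp h)
    obtain ⟨q, hq, hqo⟩ := Nat.exists_prime_and_dvd ho
    have h1 : q ∣ Nat.card K := hqo.trans (Subgroup.orderOf_dvd_natCard K hgK)
    have h2 : q ∣ Nat.card (sigmaCore M) :=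
      hqo.trans (Subgroup.orderOf_dvd_natCard (sigmaCore M) hgMs)
    have hκ := hKU.hall.2.1 q hq h1
    have hσ := Cfsg.Agent.Lib.Helper67.BG.sigmaCore_isPi M q hq h2
    exact hκ.2.2.1 hσ
  refine ⟨sup_le hKM hUM, hMsM, ?_, ?_⟩
  · rw [eq_bot_iff]
    rintro e ⟨heE, heMs⟩
    rw [Subgroup.mem_bot]
    have hmem : e ∈ (U : Set G) * (K : Set G) := by
      rw [← Subgroup.coe_mul_of_right_le_normalizer_left U K hKU.normal, sup_comm]
      exact heE
    obtain ⟨u, hu, k, hk, rfl⟩ := Set.mem_mul.mp hmem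
    have hu1 : u = 1 := by
      have hmem2 : u ∈ U ⊓ (K ⊔ sigmaCore M) := by
        refine ⟨hu, ?_⟩
        have he : u = (u * k) * k⁻¹ := by group
        rw [he]
        exact Subgroup.mul_mem _ (Subgroup.mem_sup_right heMs)
          (Subgroup.mem_sup_left (K.inv_mem hk))
      rw [hKU.compl.2.2.1, Subgroup.mem_bot] at hmem2
      exact hmem2
    rw [hu1, one_mul] at heMs ⊢
    have hmem3 : k ∈ K ⊓ sigmaCore M := ⟨hk, heMs⟩
    rwa [hKMs, Subgroup.mem_bot] at hmem3
  · intro m hm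
    obtain ⟨u, hu, b, hb, rfl⟩ := hKU.compl.2.2.2 m hm
    have hKN : K ≤ Subgroup.normalizer (sigmaCore M : Set G) :=
      hKM.trans (Cfsg.Agent.Lib.Helper67.BG.sigmaCore_normalizer M)
    have hmem : b ∈ (K : Set G) * (sigmaCore M : Set G) := by
      rw [← Subgroup.coe_mul_of_left_le_normalizer_right K (sigmaCore M) hKN]
      exact hb
    obtain ⟨k, hk, s, hs, rfl⟩ := Set.mem_mul.mp hmem
    refine ⟨u * k, ?_, s, hs, by group⟩
    exact Subgroup.mul_mem _ (Subgroup.mem_sup_right hu) (Subgroup.mem_sup_left hk)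

/-- A `p`-subgroup of `M` is abelian when all Sylow `p`-subgroups of `M` are. -/
theorem commute_of_sylow_comm {G : Type*} [Group G] [Finite G] {p : ℕ} [Fact p.Prime]
    {M Q : Subgroup G} (hS : ∀ P : Sylow p M, IsMulCommutative (P : Subgroup M))
    (hQ : IsPGroup p Q) (hQM : Q ≤ M) : ∀ a ∈ Q, ∀ b ∈ Q, a * b = b * a := by
  intro a ha b hb
  have h1 : IsPGroup p (Q.subgroupOf M) :=
    hQ.of_equiv (Subgroup.subgroupOfEquivOfLe hQM).symm
  obtain ⟨S, hS'⟩ := h1.exists_le_sylow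
  have haS : (⟨a, hQM ha⟩ : M) ∈ (S : Subgroup M) := hS' (Subgroup.mem_subgroupOf.mpr ha)
  have hbS : (⟨b, hQM hb⟩ : M) ∈ (S : Subgroup M) := hS' (Subgroup.mem_subgroupOf.mpr hb)
  have h2 := (isMulCommutative_iff.mp (hS S)) ⟨_, haS⟩ ⟨_, hbS⟩
  have h3 := congrArg (fun t : (S : Subgroup M) => ((t : M) : G)) h2
  exact h3

theorem s1361_core {G : Type*} [Group G] [Finite G] (hG : Cfsg.IsMinSimpleOddOrder G)
    (h1350 : type_of% (@Cfsg.CfsgFrozen.S1350 G _ _ hG))
    (h1405 : type_of% (@Cfsg.CfsgFrozen.S1405 G _ _ hG))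
    (h1417 : type_of% (@Cfsg.CfsgFrozen.S1417 G _ _ hG))
    (h1418 : type_of% (@Cfsg.CfsgFrozen.S1418 G _ _ hG))
    (M : Subgroup G) (hM : IsCoatom M) (K U : Subgroup G)
    (hKU : Cfsg.IsSigmaDecomposition M K U) (X : Subgroup G) (hXU : X ≤ U) (hX : X ≠ ⊥)
    (hXc : Cfsg.sigmaCore M ⊓ Subgroup.centralizer (X : Set G) ≠ ⊥) :
    Subgroup.centralizer (X : Set G) ≤ M ∧
      ∀ L : Subgroup G, IsCoatom L → Subgroup.centralizer (X : Set G) ≤ L → L = M := by
  classical
  have hodd : Odd (Nat.card G) := hG.1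
  obtain ⟨hHall, -, -⟩ := h1350 M hM
  obtain ⟨hα, -, hασ, -, -⟩ := h1405 M hM
  have hUM : U ≤ M := hKU.compl.1
  have hKM : K ≤ M := hKU.hall.1
  have hMsM : sigmaCore M ≤ M := Cfsg.Agent.Lib.Helper67.BG.sigmaCore_le M
  have hXM : X ≤ M := hXU.trans hUM
  -- a non-identity element of `M_σ` centralized by `X`
  obtain ⟨y, hy, hy1⟩ : ∃ y ∈ sigmaCore M ⊓ Subgroup.centralizer (X : Set G), y ≠ 1 := by
    by_contra hcon
    push Not at hcon
    exact hXc ((Subgroup.eq_bot_iff_forall _).mpr hcon)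
  have hyMs : y ∈ sigmaCore M := hy.1
  have hyC : ∀ h ∈ X, h * y = y * h := Subgroup.mem_centralizer_iff.mp hy.2
  -- the smallest prime divisor of `|X|`
  have hXcard : Nat.card X ≠ 1 := fun h => hX (Subgroup.card_eq_one.mp h)
  obtain ⟨p, hpdef⟩ : ∃ p, p = (Nat.card X).minFac := ⟨_, rfl⟩
  have hpp : p.Prime := by rw [hpdef]; exact Nat.minFac_prime hXcard
  have : Fact p.Prime := ⟨hpp⟩
  have hpX : p ∣ Nat.card X := by rw [hpdef]; exact Nat.minFac_dvd _
  have hpmin : ∀ q : ℕ, q.Prime → q ∣ Nat.card X → p ≤ q := by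
    intro q hq hqX
    rw [hpdef]
    exact Nat.minFac_le_of_dvd hq.two_le hqX
  have hp2 : p ≠ 2 := by
    intro h2
    have h2' : 2 ∣ Nat.card G := by
      rw [← h2]
      exact hpX.trans (Subgroup.card_subgroup_dvd_card X)
    exact (Nat.not_even_iff_odd.mpr hodd) (even_iff_two_dvd.mpr h2')
  obtain ⟨x1', hx1'⟩ := exists_prime_orderOf_dvd_card' p hpX
  obtain ⟨x1, hx1def⟩ : ∃ x1 : G, x1 = (x1' : G) := ⟨_, rfl⟩
  have hx1X : x1 ∈ X := by rw [hx1def]; exact x1'.2
  have hx1o : orderOf x1 = p := by rw [hx1def, Subgroup.orderOf_coe]; exact hx1'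
  have hx1ne : x1 ≠ 1 := by
    intro h
    rw [h, orderOf_one] at hx1o
    exact hpp.one_lt.ne hx1o
  have hx1M : x1 ∈ M := hXM hx1X
  have hx1y : x1 * y = y * x1 := hyC x1 hx1X
  -- `p` divides `|U|`, so `p ∉ σ(M)` and `p ∉ κ(M)`
  have hpU : p ∣ Nat.card U := hpX.trans (Subgroup.card_dvd_of_le hXU)
  have hpσ : p ∉ sigma M := fun h =>
    not_dvd_card_of_hall_compl hHall le_sup_right hKU.compl hpp h hpU
  have hpκ : p ∉ kappa M := fun h =>
    not_dvd_card_of_hall_compl hKU.hall le_sup_left hKU.compl hpp h hpU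
  have hr2 : PRankLE p 2 M :=
    Cfsg.Agent.Lib.Helper67.BG.pRankLE_two_of_not_mem_sigma M hα hασ hpp hpσ
  have hr1 : ¬ PRankLE p 1 M := by
    intro hr1
    apply hpκ
    refine ⟨hpp, hpX.trans (Subgroup.card_dvd_of_le hXM), hpσ, ?_⟩
    intro P
    refine ⟨Cfsg.Agent.Lib.Helper75.BG.isCyclic_of_pRankLE_one p hp2 P.isPGroup'
      (Cfsg.Agent.Lib.Helper78.BG.pRankLE_of_subgroup hr1 (P : Subgroup M)), ?_⟩
    have hZ : IsPGroup p (Subgroup.zpowers (⟨x1, hx1M⟩ : M)) := by
      apply IsPGroup.of_card (n := 1)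
      rw [Nat.card_zpowers, pow_one, ← hx1o]
      exact (Subgroup.orderOf_mk x1 hx1M)
    obtain ⟨Q, hQ⟩ := hZ.exists_le_sylow
    obtain ⟨g, hg⟩ := MulAction.exists_smul_eq M Q P
    have hxQ : (⟨x1, hx1M⟩ : M) ∈ (Q : Subgroup M) := hQ (Subgroup.mem_zpowers _)
    refine ⟨g * ⟨x1, hx1M⟩ * g⁻¹, ?_, ?_, (g : G) * y * (g : G)⁻¹, ?_, ?_, ?_⟩
    · rw [← hg, Sylow.coe_subgroup_smul, Subgroup.mem_pointwise_smul_iff_inv_smul_mem]
      have : ((MulAut.conj g)⁻¹ • (g * ⟨x1, hx1M⟩ * g⁻¹) : M) = ⟨x1, hx1M⟩ := by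
        simp [mul_assoc]
      rw [this]
      exact hxQ
    · intro h
      rw [conj_eq_one_iff] at h
      exact hx1ne (congrArg Subtype.val h)
    · exact Cfsg.Agent.Lib.Helper78.BG.conj_mem_sigmaCore M g.2 hyMs
    · intro h
      rw [conj_eq_one_iff] at h
      exact hy1 h
    · show (g : G) * x1 * (g : G)⁻¹ * ((g : G) * y * (g : G)⁻¹) =
        (g : G) * y * (g : G)⁻¹ * ((g : G) * x1 * (g : G)⁻¹)
      have e1 : (g : G) * x1 * (g : G)⁻¹ * ((g : G) * y * (g : G)⁻¹) =
          (g : G) * (x1 * y) * (g : G)⁻¹ := by group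
      have e2 : (g : G) * y * (g : G)⁻¹ * ((g : G) * x1 * (g : G)⁻¹) =
          (g : G) * (y * x1) * (g : G)⁻¹ := by group
      rw [e1, e2, hx1y]
  have hτ2 : p ∈ tau2 M := ⟨hpp, hpσ, hr2, hr1⟩
  -- the complement `E = K ⊔ U`
  obtain ⟨E, hEdef⟩ : ∃ E : Subgroup G, E = K ⊔ U := ⟨_, rfl⟩
  have hE : IsComplIn E (sigmaCore M) M := by
    rw [hEdef]; exact isComplIn_sup_of_sigmaDecomposition hKU
  have hEM : E ≤ M := hE.1
  have hXE : X ≤ E := by rw [hEdef]; exact hXU.trans le_sup_right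
  -- an elementary abelian subgroup of order `p ^ 2` inside `E`
  obtain ⟨A0, hA0M, hA0ea, hA0card⟩ := Cfsg.Agent.Lib.Helper20.BG.exists_ea_sq M p hr2 hr1
  have hA0p : IsPGroup p A0 := Cfsg.Agent.Lib.Helper20.BG.isPGroup_of_ea hA0ea
  obtain ⟨PE, hPE, -⟩ := Cfsg.Agent.Lib.Helper35.BG.exists_isSylowIn_ge
    (p := p) (Q := (⊥ : Subgroup G)) (H := E) (IsPGroup.of_bot) bot_le
  have hfac : (Nat.card M).factorization p = (Nat.card E).factorization p := by
    have hcard : Nat.card M = Nat.card E * Nat.card (sigmaCore M) :=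
      Cfsg.Agent.Lib.Helper23.card_of_isComplIn hE
    have hnd : ¬ p ∣ Nat.card (sigmaCore M) := fun h =>
      hpσ (Cfsg.Agent.Lib.Helper67.BG.sigmaCore_isPi M p hpp h)
    rw [hcard, Nat.factorization_mul Nat.card_pos.ne' Nat.card_pos.ne']
    simp [Nat.factorization_eq_zero_of_not_dvd hnd]
  have hPEM : Cfsg.Agent.Lib.Helper46.IsSylowIn p PE M := ⟨hPE.1.trans hEM, by rw [hfac]; exact hPE.2⟩
  obtain ⟨R0, hR0, hA0R0⟩ := Cfsg.Agent.Lib.Helper35.BG.exists_isSylowIn_ge hA0p hA0M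
  obtain ⟨g, hgM, hgeq⟩ := hR0.exists_conj hPEM
  obtain ⟨A, hAdef⟩ : ∃ A : Subgroup G, A = A0.map (MulAut.conj g).toMonoidHom := ⟨_, rfl⟩
  have hAE : A ≤ E := by
    rw [hAdef]
    exact (Subgroup.map_mono hA0R0).trans (hgeq ▸ hPE.1)
  have hAea : IsElementaryAbelian p A := by rw [hAdef]; exact ea_map_conj hA0ea g
  have hAcard : Nat.card A = p ^ 2 := by
    rw [hAdef, Cfsg.Agent.Lib.Helper35.BG.card_map_conj]; exact hA0card
  have hAM : A ≤ M := hAE.trans hEM
  have hAp : IsPGroup p A := Cfsg.Agent.Lib.Helper20.BG.isPGroup_of_ea hAea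
  -- consequences of 12.5 and 12.6
  obtain ⟨-, hSyl, -, -, h12e, -⟩ := h1417 M hM p hτ2 A ⟨hAM, hAea, hAcard⟩
  obtain ⟨⟨hEN, hAall⟩, -, -⟩ := h1418 M hM E hE p hτ2 A ⟨hAE, hAea, hAcard⟩
  have hSylc : ∀ P : Sylow p M, IsMulCommutative (P : Subgroup M) := fun P => (hSyl P).1
  -- `X` centralizes `A`
  have hXA : X ≤ Subgroup.centralizer (A : Set G) := by
    intro u hu
    apply Cfsg.Agent.Lib.Helper80.mem_of_primePow_pows (Subgroup.centralizer (A : Set G)) _ u rfl
    intro j r k hr hpow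
    have hujX : u ^ j ∈ X := X.pow_mem hu j
    have hujN : u ^ j ∈ Subgroup.normalizer (A : Set G) := hEN (hXE hujX)
    rw [Subgroup.mem_centralizer_iff]
    by_cases huj1 : u ^ j = 1
    · intro a _
      rw [huj1, one_mul, mul_one]
    have hrdvd : r ∣ Nat.card X := by
      have ho : orderOf (u ^ j) ∣ r ^ k := orderOf_dvd_of_pow_eq_one hpow
      have ho1 : orderOf (u ^ j) ≠ 1 := fun h => huj1 (orderOf_eq_one_iff.mp h)
      obtain ⟨i, -, hi⟩ := (Nat.dvd_prime_pow hr).mp ho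
      have hi0 : i ≠ 0 := by
        intro h0
        rw [h0, pow_zero] at hi
        exact ho1 hi
      have : r ∣ orderOf (u ^ j) := by rw [hi]; exact dvd_pow_self r hi0
      exact this.trans (Subgroup.orderOf_dvd_natCard X hujX)
    have hpr : p ≤ r := hpmin r hr hrdvd
    have : Fact r.Prime := ⟨hr⟩
    rcases Nat.lt_or_eq_of_le hpr with hlt | heq
    · intro a ha
      exact (commute_of_normalizes_sq hlt hp2 A hAcard (u ^ j) hujN ⟨k, hpow⟩ a ha).symm
    · -- a `p`-element: `⟨u ^ j⟩ A` is a `p`-subgroup of `M`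
      have hZp : IsPGroup p (Subgroup.zpowers (u ^ j)) := by
        rintro ⟨z, hz⟩
        obtain ⟨n, rfl⟩ := Subgroup.mem_zpowers_iff.mp hz
        refine ⟨k, Subtype.ext ?_⟩
        show ((u ^ j) ^ n) ^ p ^ k = 1
        rw [heq, ← zpow_natCast, ← zpow_mul, mul_comm, zpow_mul, zpow_natCast, hpow, one_zpow]
      have hZN : Subgroup.zpowers (u ^ j) ≤ Subgroup.normalizer (A : Set G) := by
        rw [Subgroup.zpowers_le]; exact hujN
      have hQp : IsPGroup p (Subgroup.zpowers (u ^ j) ⊔ A : Subgroup G) :=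
        IsPGroup.to_sup_of_normal_right' hZp hAp hZN
      have hQM : (Subgroup.zpowers (u ^ j) ⊔ A : Subgroup G) ≤ M :=
        sup_le (by rw [Subgroup.zpowers_le]; exact hXM hujX) hAM
      intro a ha
      exact commute_of_sylow_comm hSylc hQp hQM a (Subgroup.mem_sup_right ha) (u ^ j)
        (Subgroup.mem_sup_left (Subgroup.mem_zpowers _))
  have hAC : A ≤ Subgroup.centralizer (X : Set G) := by
    intro a ha
    rw [Subgroup.mem_centralizer_iff]
    intro h hh
    have := hXA hh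
    rw [Subgroup.mem_centralizer_iff] at this
    exact (this a ha).symm
  -- uniqueness
  have huniq : ∀ L : Subgroup G, IsCoatom L → Subgroup.centralizer (X : Set G) ≤ L → L = M := by
    intro L hL hCL
    by_contra hne
    have h1 := h12e L hL hne (hAC.trans hCL)
    have hyL : y ∈ L := hCL (by
      rw [Subgroup.mem_centralizer_iff]; exact hyC)
    have : y ∈ sigmaCore M ⊓ L := ⟨hyMs, hyL⟩
    rw [h1, Subgroup.mem_bot] at this
    exact hy1 this
  refine ⟨?_, huniq⟩
  have hCtop : Subgroup.centralizer (X : Set G) ≠ ⊤ := by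
    apply Cfsg.Agent.Lib.Helper78.BG.centralizer_ne_top_of_simple hG.2.1 hG.2.2.1 X hX
  obtain ⟨L, hL, hCL⟩ := Cfsg.Agent.Lib.Helper35.BG.exists_coatom_ge hCtop
  rw [← huniq L hL hCL]
  exact hCL

end Cfsg.Agent.Lib.Helper57.BG
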